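import Mathlib
import Cfsg.Prelude.Def_LieRecognition

/-!
The rank-one set-up.
-/

set_option autoImplicit false
set_option maxHeartbeats 1000000

namespace Cfsg.Agent.L0.R1

section Dih
variable {G : Type*} [Group G]

theorem conj_pow_inv {s c : G} (hs : s * s = 1) (hc : s * c * s = c⁻¹) (k : ℕ) : s * c ^ k * s = (c ^ k)⁻¹ := by
  have hi : s⁻¹ = s := inv_eq_of_mul_eq_one_left hs
  have h1 : s * c ^ k * s⁻¹ = (s * c * s⁻¹) ^ k := by rw [conj_pow]
  rw [hi] at h1
  rw [h1, hc, inv_pow]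

theorem dih_aux {s u : G} (hs : s * s = 1) (hu : u * u = 1) : s * (s * u) * s = (s * u)⁻¹ := by
  have hi : s⁻¹ = s := inv_eq_of_mul_eq_one_left hs
  have hj : u⁻¹ = u := inv_eq_of_mul_eq_one_left hu
  rw [mul_inv_rev, hi, hj, ← mul_assoc, hs, one_mul]

/-- involution swapping `s` and `u` -/
theorem dih_swap [Finite G] {s u : G} (hs : s * s = 1) (hu : u * u = 1) (ho : Odd (orderOf (s * u))) :
    ∃ m : ℕ, ((s * u) ^ m * s) * ((s * u) ^ m * s) = 1 ∧ ((s * u) ^ m * s) * s * ((s * u) ^ m * s) = u := by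
  obtain ⟨m, hm⟩ := ho
  have h1 := conj_pow_inv hs (dih_aux hs hu) m
  refine ⟨m, ?_, ?_⟩
  · calc (s * u) ^ m * s * ((s * u) ^ m * s) = (s * u) ^ m * (s * (s * u) ^ m * s) := by group
      _ = 1 := by rw [h1, mul_inv_cancel]
  · have h2 : (s * u) ^ (2 * m) = (s * u)⁻¹ := by
      have h3 : (s * u) ^ (2 * m) * (s * u) = 1 := by rw [← pow_succ, ← hm, pow_orderOf_eq_one]
      exact eq_inv_of_mul_eq_one_left h3
    have h4 : s * (s * u) ^ m = ((s * u) ^ m)⁻¹ * s := by
      rw [← h1, mul_assoc, hs, mul_one]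
    have hi : s⁻¹ = s := inv_eq_of_mul_eq_one_left hs
    have hj : u⁻¹ = u := inv_eq_of_mul_eq_one_left hu
    calc (s * u) ^ m * s * s * ((s * u) ^ m * s) = (s * u) ^ m * (s * s) * (s * u) ^ m * s := by group
      _ = (s * u) ^ (2 * m) * s := by rw [hs, mul_one, ← pow_add, two_mul]
      _ = u := by rw [h2, mul_inv_rev, hi, hj, mul_assoc, hs, mul_one]

theorem dih_odd [Finite G] {s u : G} (hs : s * s = 1) (hu : u * u = 1)
    (h : ∀ z : G, z ≠ 1 → z * z = 1 → s * z = z * s → u * z = z * u → False) : Odd (orderOf (s * u)) := by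
  by_contra hcon
  rw [Nat.not_odd_iff_even] at hcon
  obtain ⟨m, hm⟩ := hcon
  have h1 := conj_pow_inv hs (dih_aux hs hu) m
  have hzz : (s * u) ^ m * (s * u) ^ m = 1 := by rw [← pow_add, ← hm, pow_orderOf_eq_one]
  have hzi : ((s * u) ^ m)⁻¹ = (s * u) ^ m := inv_eq_of_mul_eq_one_left hzz
  rw [hzi] at h1
  have h2 : s * (s * u) ^ m = (s * u) ^ m * s := by
    calc s * (s * u) ^ m = (s * (s * u) ^ m * s) * s := by rw [mul_assoc _ s s, hs, mul_one]
      _ = (s * u) ^ m * s := by rw [h1]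
  refine h _ ?_ hzz h2 ?_
  · intro h3
    have h4 : orderOf (s * u) ∣ m := orderOf_dvd_of_pow_eq_one h3
    have h5 : 0 < orderOf (s * u) := orderOf_pos _
    have h6 := Nat.le_of_dvd (by omega) h4
    omega
  · have h3 : s * u * (s * u) ^ m = (s * u) ^ m * (s * u) := by rw [← pow_succ', ← pow_succ]
    have h4 : s * (u * (s * u) ^ m) = s * ((s * u) ^ m * u) := by
      calc s * (u * (s * u) ^ m) = s * u * (s * u) ^ m := by group
        _ = (s * u) ^ m * (s * u) := h3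
        _ = ((s * u) ^ m * s) * u := by group
        _ = s * ((s * u) ^ m * u) := by rw [← h2]; group
    exact mul_left_cancel h4

/-- square roots -/
theorem exists_sqrt [Finite G] {X : Subgroup G} (hX : Odd (Nat.card X)) {x : G} (hx : x ∈ X) : ∃ j : ℕ, x ^ j * x ^ j = x := by
  have h1 : orderOf x ∣ Nat.card X := by
    have := orderOf_dvd_natCard (⟨x, hx⟩ : X)
    rwa [Subgroup.orderOf_mk] at this
  obtain ⟨m, hm⟩ := Odd.of_dvd_nat hX h1
  refine ⟨m + 1, ?_⟩
  rw [← pow_add, show m + 1 + (m + 1) = (2 * m + 1) + 1 by ring, pow_succ, ← hm, pow_orderOf_eq_one, one_mul]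

theorem eq_one_of_sq [Finite G] {X : Subgroup G} (hX : Odd (Nat.card X)) {x : G} (hx : x ∈ X) (h : x * x = 1) : x = 1 := by
  obtain ⟨j, hj⟩ := exists_sqrt hX hx
  rw [← hj, ← pow_add, ← two_mul, pow_mul, pow_two, h, one_pow]

theorem comm_of_comm_sq [Finite G] {X : Subgroup G} (hX : Odd (Nat.card X)) {x : G} (hx : x ∈ X) {y : G} (h : x * x * y = y * (x * x)) :
    x * y = y * x := by
  obtain ⟨j, hj⟩ := exists_sqrt hX hx
  have h1 : Commute (x * x) y := h
  have h2 : (x * x) ^ j = x := by rw [(Commute.refl x).mul_pow, hj]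
  have h3 := (h1.pow_left j).eq
  rwa [h2] at h3

theorem sq_inj [Finite G] {X : Subgroup G} (hX : Odd (Nat.card X)) {x y : G} (hx : x ∈ X) (hy : y ∈ X) (h : x * x = y * y) : x = y := by
  have h1 : x * y = y * x := comm_of_comm_sq hX hx (by rw [h]; group)
  have h2 : (x * y⁻¹) * (x * y⁻¹) = 1 := by
    have h3 : Commute x y⁻¹ := (show Commute x y from h1).inv_right
    calc (x * y⁻¹) * (x * y⁻¹) = x * (y⁻¹ * x) * y⁻¹ := by group
      _ = (x * x) * (y⁻¹ * y⁻¹) := by rw [← h3.eq]; group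
      _ = 1 := by rw [h]; group
  exact mul_inv_eq_one.mp (eq_one_of_sq hX (X.mul_mem hx (X.inv_mem hy)) h2)

end Dih

section Setup
open Cfsg

variable {G Ω : Type*} [Group G] [Finite G] [MulAction G Ω] {a : Ω} {t : G} {Q : Subgroup G}

/-- two-point stabiliser -/
abbrev DD (G : Type*) {Ω : Type*} [Group G] [MulAction G Ω] (a : Ω) (t : G) : Subgroup G :=
  MulAction.stabilizer G a ⊓ MulAction.stabilizer G (t • a)

variable (hS : Cfsg.IsRankOneSetup G Ω a t Q)
include hS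

omit [Finite G] in
theorem tinv : t⁻¹ = t := inv_eq_of_mul_eq_one_left hS.mul_self

omit [Finite G] in
theorem ttb : t • t • a = a := by rw [← mul_smul, hS.mul_self, one_smul]

omit [Finite G] in
theorem tne : t • a ≠ a := hS.not_mem

omit [Finite G] in
theorem memQ_fix {x : G} (hx : x ∈ Q) : x • a = a := hS.le hx

omit [Finite G] in
theorem exists_map {c d c' d' : Ω} (h : c ≠ d) (h' : c' ≠ d') : ∃ g : G, g • c = c' ∧ g • d = d' :=
  MulAction.is_two_pretransitive_iff.mp hS.two_transitive h h'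

omit [Finite G] in
/-- `G_a = Q D` -/
theorem decomp {g : G} (hg : g • a = a) : ∃ q ∈ Q, ∃ d ∈ DD G a t, g = q * d := by
  let M : Subgroup G :=
    { carrier := {g | ∃ q ∈ Q, ∃ d ∈ DD G a t, g = q * d}
      one_mem' := ⟨1, Q.one_mem, 1, (DD G a t).one_mem, by simp⟩
      mul_mem' := by
        rintro _ _ ⟨q, hq, d, hd, rfl⟩ ⟨q', hq', d', hd', rfl⟩
        exact ⟨q * (d * q' * d⁻¹), Q.mul_mem hq (hS.conj_mem d hd.1 q' hq'), d * d', (DD G a t).mul_mem hd hd', by group⟩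
      inv_mem' := by
        rintro _ ⟨q, hq, d, hd, rfl⟩
        refine ⟨d⁻¹ * q⁻¹ * d, ?_, d⁻¹, (DD G a t).inv_mem hd, by group⟩
        have := hS.conj_mem d⁻¹ ((MulAction.stabilizer G a).inv_mem hd.1) q⁻¹ (Q.inv_mem hq)
        rwa [inv_inv] at this }
  have h1 : Q ⊔ DD G a t ≤ M := sup_le (fun q hq => ⟨q, hq, 1, (DD G a t).one_mem, by simp⟩)
    (fun d hd => ⟨1, Q.one_mem, d, hd, by simp⟩)
  have h2 : g ∈ Q ⊔ DD G a t := by rw [hS.sup_eq]; exact hg
  exact h1 h2

omit [Finite G] in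
theorem Q_trans {c : Ω} (hc : c ≠ a) : ∃ x ∈ Q, x • (t • a) = c := by
  obtain ⟨g, h1, h2⟩ := exists_map hS (tne hS).symm hc.symm
  obtain ⟨q, hq, d, hd, rfl⟩ := decomp hS h1
  refine ⟨q, hq, ?_⟩
  rw [mul_smul, show d • (t • a) = t • a from hd.2] at h2
  exact h2

omit [Finite G] in
theorem semireg {x : G} (hx : x ∈ Q) {c : Ω} (hc : c ≠ a) (h : x • c = c) : x = 1 := by
  obtain ⟨q, hq, rfl⟩ := Q_trans hS hc
  have h1 : q⁻¹ * x * q ∈ Q ⊓ MulAction.stabilizer G (t • a) := by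
    refine Subgroup.mem_inf.mpr ⟨Q.mul_mem (Q.mul_mem (Q.inv_mem hq) hx) hq, ?_⟩
    rw [MulAction.mem_stabilizer_iff, mul_smul, mul_smul, h, inv_smul_smul]
  rw [hS.inf_eq_bot, Subgroup.mem_bot] at h1
  calc x = q * (q⁻¹ * x * q) * q⁻¹ := by group
    _ = 1 := by rw [h1]; group

omit [Finite G] in
theorem Q_uniq {x y : G} (hx : x ∈ Q) (hy : y ∈ Q) {c : Ω} (hc : c ≠ a) (h : x • c = y • c) : x = y := by
  have h1 : y⁻¹ * x = 1 := by
    apply semireg hS (Q.mul_mem (Q.inv_mem hy) hx) hc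
    rw [mul_smul, h, inv_smul_smul]
  exact (inv_mul_eq_one.mp h1).symm

/-- an involution of `G_a` lies in `Q` -/
theorem inv_mem_Q {s : G} (hs : s • a = a) (hss : s * s = 1) : s ∈ Q := by
  obtain ⟨q, hq, d, hd, rfl⟩ := decomp hS hs
  have h1 : d * d ∈ Q := by
    have h2 : d * d = (q * (d * q * d⁻¹))⁻¹ := by
      apply eq_inv_of_mul_eq_one_right
      calc q * (d * q * d⁻¹) * (d * d) = q * d * (q * d) := by group
        _ = 1 := hss
    rw [h2]
    exact Q.inv_mem (Q.mul_mem hq (hS.conj_mem d hd.1 q hq))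
  have h2 : d * d ∈ Q ⊓ MulAction.stabilizer G (t • a) := Subgroup.mem_inf.mpr ⟨h1, ((DD G a t).mul_mem hd hd).2⟩
  rw [hS.inf_eq_bot, Subgroup.mem_bot] at h2
  rw [eq_one_of_sq hS.odd_card hd h2, mul_one]
  exact hq

omit [Finite G] in
/-- the points -/
noncomputable def ptEquiv : Option Q ≃ Ω :=
  Equiv.ofBijective (fun o => o.elim a (fun x => (x : G) • (t • a))) (by
    constructor
    · rintro (_ | x) (_ | y) h
      · rfl
      · exfalso
        change a = (y : G) • (t • a) at h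
        have h1 : (y : G) • a = (y : G) • (t • a) := by rw [memQ_fix hS y.2]; exact h
        exact tne hS (smul_left_cancel _ h1).symm
      · exfalso
        change (x : G) • (t • a) = a at h
        have h1 : (x : G) • (t • a) = (x : G) • a := by rw [memQ_fix hS x.2]; exact h
        exact tne hS (smul_left_cancel _ h1)
      · change (x : G) • (t • a) = (y : G) • (t • a) at h
        congr 1
        exact Subtype.ext (Q_uniq hS x.2 y.2 (tne hS) h)
    · intro c
      by_cases hc : c = a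
      · exact ⟨none, hc.symm⟩
      · obtain ⟨x, hx, h⟩ := Q_trans hS hc
        exact ⟨some ⟨x, hx⟩, h⟩)

theorem card_pts : Nat.card Ω = Nat.card Q + 1 := by
  rw [← Nat.card_congr (ptEquiv hS), Finite.card_option]

theorem finite_pts : Finite Ω := Finite.of_equiv _ (ptEquiv hS)

/-- an involution fixes exactly one point -/
theorem inv_fix {u : G} (hu : u ≠ 1) (huu : u * u = 1) : ∃ c : Ω, u • c = c ∧ ∀ c' : Ω, u • c' = c' → c' = c := by
  haveI := finite_pts hS
  haveI := Fintype.ofFinite Ω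
  have h1 : ¬ 2 ∣ Fintype.card Ω := by
    rw [← Nat.card_eq_fintype_card, card_pts hS]
    have := hS.even_card.two_dvd
    omega
  obtain ⟨c, hc⟩ := Equiv.Perm.exists_fixed_point_of_prime (p := 2) (n := 1) h1 (σ := MulAction.toPermHom G Ω u) (by
    rw [pow_one, ← map_pow, pow_two, huu, map_one])
  have hc' : u • c = c := hc
  refine ⟨c, hc', ?_⟩
  obtain ⟨g, hg⟩ : ∃ g : G, g • c = a := by
    by_cases h : c = a
    · exact ⟨1, by rw [one_smul, h]⟩
    · obtain ⟨g, hg, -⟩ := exists_map hS h (tne hS).symm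
      exact ⟨g, hg⟩
  have h2 : g * u * g⁻¹ ∈ Q := by
    apply inv_mem_Q hS
    · rw [mul_smul, mul_smul, ← hg, inv_smul_smul, hc']
    · calc g * u * g⁻¹ * (g * u * g⁻¹) = g * (u * u) * g⁻¹ := by group
        _ = 1 := by rw [huu]; group
  intro c' hc2
  by_contra hne
  apply hu
  have h3 : g * u * g⁻¹ = 1 := by
    refine semireg hS h2 (c := g • c') ?_ ?_
    · intro h
      exact hne (smul_left_cancel g (h.trans hg.symm))
    · rw [mul_smul, mul_smul, inv_smul_smul, hc2]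
  calc u = g⁻¹ * (g * u * g⁻¹) * g := by group
    _ = 1 := by rw [h3]; group

theorem fix_unique {u : G} (hu : u ≠ 1) (huu : u * u = 1) {c d : Ω} (hc : u • c = c) (hd : u • d = d) : c = d := by
  obtain ⟨e, -, h⟩ := inv_fix hS hu huu
  rw [h c hc, h d hd]

/-- commuting with an involution -/
theorem fix_of_comm {u : G} (hu : u ≠ 1) (huu : u * u = 1) {c : Ω} (hc : u • c = c) {y : G} (h : y * u = u * y) : y • c = c := by
  refine fix_unique hS hu huu ?_ hc
  rw [← mul_smul, ← h, mul_smul, hc]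

theorem odd_of_ne {s u : G} (hs : s ≠ 1) (hss : s * s = 1) (hu : u ≠ 1) (huu : u * u = 1) {c : Ω} (hc : s • c = c) (hc' : u • c ≠ c) :
    Odd (orderOf (s * u)) := by
  refine dih_odd hss huu fun z hz hzz h1 h2 => hc' ?_
  have h3 : z • c = c := fix_of_comm hS hs hss hc h1.symm
  exact fix_of_comm hS hz hzz h3 h2

theorem exists_inv_Q : ∃ s ∈ Q, s ≠ 1 ∧ s * s = 1 := by
  obtain ⟨s, hs⟩ := exists_prime_orderOf_dvd_card' (G := Q) 2 hS.even_card.two_dvd
  refine ⟨s, s.2, ?_, ?_⟩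
  · intro h
    have : s = 1 := Subtype.ext h
    rw [this, orderOf_one] at hs
    norm_num at hs
  · have : s * s = 1 := by rw [← pow_two, ← hs, pow_orderOf_eq_one]
    exact congrArg Subtype.val this

omit [Finite G] in
/-- elements of `D` -/
theorem conj_D {d : G} (hd : d ∈ DD G a t) : t * d * t ∈ DD G a t := by
  refine Subgroup.mem_inf.mpr ⟨?_, ?_⟩
  · rw [MulAction.mem_stabilizer_iff, mul_smul, mul_smul, show d • (t • a) = t • a from hd.2, ttb hS]
  · rw [MulAction.mem_stabilizer_iff, mul_smul, mul_smul, ttb hS, show d • a = a from hd.1]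

/-- an involution mapping `a` to `t a` is `K`-conjugate to `t` -/
theorem T_lemma {u : G} (huu : u * u = 1) (h : u • a = t • a) :
    ∃ m ∈ DD G a t, t * m * t = m⁻¹ ∧ u = m⁻¹ * t * m := by
  have hub : u • (t • a) = a := by rw [← h, ← mul_smul, huu, one_smul]
  have hkD : t * u ∈ DD G a t := by
    refine Subgroup.mem_inf.mpr ⟨?_, ?_⟩
    · rw [MulAction.mem_stabilizer_iff, mul_smul, h, ttb hS]
    · rw [MulAction.mem_stabilizer_iff, mul_smul, hub]
  obtain ⟨j, hj⟩ := exists_sqrt hS.odd_card hkD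
  have h1 := conj_pow_inv hS.mul_self (dih_aux hS.mul_self huu) j
  refine ⟨(t * u) ^ j, (DD G a t).pow_mem hkD j, h1, ?_⟩
  rw [← h1]
  calc u = t * (t * u) := by rw [← mul_assoc, hS.mul_self, one_mul]
    _ = t * ((t * u) ^ j * (t * u) ^ j) := by rw [hj]
    _ = t * (t * u) ^ j * (t * t) * (t * u) ^ j := by rw [hS.mul_self]; group
    _ = t * (t * u) ^ j * t * t * (t * u) ^ j := by group

omit [Finite G] in
theorem K_comm {m : G} (h : t * m * t = m⁻¹) : t * m = m⁻¹ * t := by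
  rw [← h, mul_assoc, hS.mul_self, mul_one]

omit [Finite G] in
theorem K_comm' {m : G} (h : t * m * t = m⁻¹) : m * t = t * m⁻¹ := by
  have h1 := K_comm hS h
  calc m * t = m * (t * m) * m⁻¹ := by group
    _ = t * m⁻¹ := by rw [h1]; group

/-- every involution of `Q` is `K`-conjugate to a special one -/
theorem special_exists {s : G} (hsQ : s ∈ Q) (hs1 : s ≠ 1) (hss : s * s = 1) :
    ∃ m ∈ DD G a t, t * m * t = m⁻¹ ∧ ∃ r ∈ Q, t * (m⁻¹ * s * m) * t = r⁻¹ * t * r := by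
  have htt := hS.mul_self
  set u := t * s * t with hu
  have huu : u * u = 1 := by
    calc u * u = t * s * (t * t) * s * t := by rw [hu]; group
      _ = t * (s * s) * t := by rw [htt]; group
      _ = 1 := by rw [hss, mul_one, htt]
  have hu1 : u ≠ 1 := by
    intro h
    apply hs1
    calc s = t * u * t := by rw [hu]; calc s = (t * t) * s * (t * t) := by rw [htt]; group
                                _ = t * (t * s * t) * t := by group
      _ = 1 := by rw [h, mul_one, htt]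
  have hub : u • (t • a) = t • a := by
    rw [hu, mul_smul, mul_smul, ttb hS, memQ_fix hS hsQ]
  have hua : u • a ≠ a := fun h => tne hS (fix_unique hS hu1 huu h hub).symm
  obtain ⟨z, hz, hza⟩ := Q_trans hS hua
  -- `y = z⁻¹`
  have hya : z⁻¹ • (u • a) = t • a := by rw [← hza, inv_smul_smul]
  have hT := T_lemma hS (u := z⁻¹ * u * z) (by
    calc z⁻¹ * u * z * (z⁻¹ * u * z) = z⁻¹ * (u * u) * z := by group
      _ = 1 := by rw [huu]; group) (by rw [mul_smul, mul_smul, memQ_fix hS hz, hya])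
  obtain ⟨m, hm, hmt, he⟩ := hT
  refine ⟨m, hm, hmt, m * z⁻¹ * m⁻¹, hS.conj_mem m hm.1 _ (Q.inv_mem hz), ?_⟩
  have h1 := K_comm hS hmt
  have h2 := K_comm' hS hmt
  have h3 : u = z * m⁻¹ * t * m * z⁻¹ := by
    calc u = z * (z⁻¹ * u * z) * z⁻¹ := by group
      _ = z * m⁻¹ * t * m * z⁻¹ := by rw [he]; group
  calc t * (m⁻¹ * s * m) * t = (t * m⁻¹) * s * (m * t) := by group
    _ = m * t * s * (t * m⁻¹) := by rw [← h2]
    _ = m * u * m⁻¹ := by rw [hu]; group
    _ = m * (z * m⁻¹ * t * m * z⁻¹) * m⁻¹ := by rw [← h3]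
    _ = (m * z⁻¹ * m⁻¹)⁻¹ * t * (m * z⁻¹ * m⁻¹) := by group

theorem special_unique {s s' r r' : G} (hsQ : s ∈ Q) (hs1 : s ≠ 1) (hss : s * s = 1) (hrQ : r ∈ Q) (h : t * s * t = r⁻¹ * t * r)
    (hsQ' : s' ∈ Q) (hs1' : s' ≠ 1) (hss' : s' * s' = 1) (hrQ' : r' ∈ Q) (h' : t * s' * t = r'⁻¹ * t * r') : s = s' ∧ r = r' := by
  have htt := hS.mul_self
  have hti := tinv hS
  have e1 : (r * t) * s * (r * t)⁻¹ = t := by
    rw [mul_inv_rev, hti]
    calc r * t * s * (t * r⁻¹) = r * (t * s * t) * r⁻¹ := by group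
      _ = t := by rw [h]; group
  have e2 : (r' * t) * s' * (r' * t)⁻¹ = t := by
    rw [mul_inv_rev, hti]
    calc r' * t * s' * (t * r'⁻¹) = r' * (t * s' * t) * r'⁻¹ := by group
      _ = t := by rw [h']; group
  have e3 : t * (r'⁻¹ * r) * t * s * (t * (r'⁻¹ * r) * t)⁻¹ = s' := by
    have h1 : t * (r'⁻¹ * r) * t = (r' * t)⁻¹ * (r * t) := by rw [mul_inv_rev, hti]; group
    rw [h1]
    calc (r' * t)⁻¹ * (r * t) * s * ((r' * t)⁻¹ * (r * t))⁻¹ = (r' * t)⁻¹ * ((r * t) * s * (r * t)⁻¹) * (r' * t) := by group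
      _ = (r' * t)⁻¹ * ((r' * t) * s' * (r' * t)⁻¹) * (r' * t) := by rw [e1, e2]
      _ = s' := by group
  -- `t (r'⁻¹ r) t` fixes `a`
  have e4 : (t * (r'⁻¹ * r) * t) • a = a := by
    refine fix_unique hS hs1' hss' ?_ (memQ_fix hS hsQ')
    rw [← e3]
    have h2 : (t * (r'⁻¹ * r) * t * s * (t * (r'⁻¹ * r) * t)⁻¹) • ((t * (r'⁻¹ * r) * t) • a) = (t * (r'⁻¹ * r) * t) • (s • a) := by
      rw [← mul_smul, ← mul_smul]; congr 1; group
    rw [h2, memQ_fix hS hsQ]
  have e5 : r'⁻¹ * r = 1 := by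
    have h2 : (r'⁻¹ * r) • (t • a) = t • a := by
      have h3 : t • ((t * (r'⁻¹ * r) * t) • a) = t • a := by rw [e4]
      rw [← mul_smul] at h3
      have h4 : t * (t * (r'⁻¹ * r) * t) = (r'⁻¹ * r) * t := by
        calc t * (t * (r'⁻¹ * r) * t) = (t * t) * (r'⁻¹ * r) * t := by group
          _ = (r'⁻¹ * r) * t := by rw [htt]; group
      rw [h4, mul_smul] at h3
      exact h3
    exact semireg hS (Q.mul_mem (Q.inv_mem hrQ') hrQ) (tne hS) h2
  refine ⟨?_, (inv_mul_eq_one.mp e5).symm⟩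
  rw [e5, mul_one, htt, one_mul, inv_one, mul_one] at e3
  exact e3

end Setup

end Cfsg.Agent.L0.R1
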