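import Cfsg.Agent.L0.R1.Two

set_option autoImplicit false
set_option maxHeartbeats 1000000

namespace Cfsg.Agent.L0.R1
open Cfsg

section Setup
variable {G Ω : Type*} [Group G] [Finite G] [MulAction G Ω] {a : Ω} {t : G} {Q : Subgroup G}
variable (hS : Cfsg.IsRankOneSetup G Ω a t Q)
include hS

omit [Finite G] in
theorem form_unique {g h f g' h' f' : G} (hg : g ∈ Q) (hh : h ∈ DD G a t) (hf : f ∈ Q) (hg' : g' ∈ Q) (hh' : h' ∈ DD G a t) (hf' : f' ∈ Q)
    (e : g * h * t * f = g' * h' * t * f') : g = g' ∧ h = h' ∧ f = f' := by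
  have hfix : ∀ g ∈ Q, ∀ h ∈ DD G a t, (g * h) • a = a := fun g hg h hh => by
    rw [mul_smul, show h • a = a from hh.1, memQ_fix hS hg]
  have hfix' : ∀ g ∈ Q, ∀ h ∈ DD G a t, (g * h)⁻¹ • a = a := fun g hg h hh => by
    rw [inv_smul_eq_iff, hfix g hg h hh]
  have e1 : f⁻¹ • (t • a) = f'⁻¹ • (t • a) := by
    have h1 : (g * h * t * f)⁻¹ • a = (g' * h' * t * f')⁻¹ • a := by rw [e]
    have h2 : ∀ g h f : G, (g * h * t * f)⁻¹ • a = f⁻¹ • (t⁻¹ • ((g * h)⁻¹ • a)) := fun g h f => by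
      rw [← mul_smul, ← mul_smul]; congr 1; group
    rw [h2, h2, hfix' g hg h hh, hfix' g' hg' h' hh', tinv hS] at h1
    exact h1
  have e2 := Q_uniq hS (Q.inv_mem hf) (Q.inv_mem hf') (tne hS) e1
  have e3 : f = f' := inv_injective e2
  subst e3
  have e4 : g * h = g' * h' := mul_right_cancel (mul_right_cancel e)
  have e5 : g • (t • a) = g' • (t • a) := by
    have h1 : (g * h) • (t • a) = (g' * h') • (t • a) := by rw [e4]
    rwa [mul_smul, mul_smul, show h • (t • a) = t • a from hh.2, show h' • (t • a) = t • a from hh'.2] at h1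
  have e6 := Q_uniq hS hg hg' (tne hS) e5
  subst e6
  exact ⟨rfl, mul_left_cancel e4, rfl⟩

omit [Finite G] in
theorem s1165 {x g h f : G} (hx : x ∈ Q) (hg : g ∈ Q) (hh : h ∈ DD G a t) (hf : f ∈ Q)
    (heq : t * x * t = g * h * t * f) :
    (∀ g₁ h₁ f₁ : G, g₁ ∈ Q → h₁ ∈ DD G a t → f₁ ∈ Q → t * x⁻¹ * t = g₁ * h₁ * t * f₁ →
        f₁ = g⁻¹ ∧ h₁ = t * h⁻¹ * t) ∧
      (∀ g₂ h₂ f₂ : G, g₂ ∈ Q → h₂ ∈ DD G a t → f₂ ∈ Q → t * f * t = g₂ * h₂ * t * f₂ →
        f₂ = x ∧ h₂ = h⁻¹) ∧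
      ∀ c ∈ DD G a t, ∀ g₃ h₃ f₃ : G, g₃ ∈ Q → h₃ ∈ DD G a t → f₃ ∈ Q →
        t * (c⁻¹ * x * c) * t = g₃ * h₃ * t * f₃ →
          f₃ = (t * c * t)⁻¹ * f * (t * c * t) ∧ h₃ = (t * c * t)⁻¹ * h * c := by
  have htt := hS.mul_self
  have hti := tinv hS
  refine ⟨?_, ?_, ?_⟩
  · intro g₁ h₁ f₁ hg₁ hh₁ hf₁ he
    have e1 : t * x⁻¹ * t = f⁻¹ * (t * h⁻¹ * t) * t * g⁻¹ := by
      calc t * x⁻¹ * t = (t⁻¹ * x * t⁻¹)⁻¹ := by group
        _ = (g * h * t * f)⁻¹ := by rw [hti, heq]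
        _ = f⁻¹ * t⁻¹ * h⁻¹ * g⁻¹ := by group
        _ = f⁻¹ * t * h⁻¹ * (t * t) * g⁻¹ := by rw [hti, htt, mul_one]
        _ = f⁻¹ * (t * h⁻¹ * t) * t * g⁻¹ := by group
    obtain ⟨-, e2, e3⟩ := form_unique hS hg₁ hh₁ hf₁ (Q.inv_mem hf) (conj_D hS ((DD G a t).inv_mem hh)) (Q.inv_mem hg) (he.symm.trans e1)
    exact ⟨e3, e2⟩
  · intro g₂ h₂ f₂ hg₂ hh₂ hf₂ he
    have e1 : t * f * t = (h⁻¹ * g⁻¹ * h) * h⁻¹ * t * x := by
      calc t * f * t = h⁻¹ * g⁻¹ * (g * h * t * f) * t := by group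
        _ = h⁻¹ * g⁻¹ * (t * x * t) * t := by rw [heq]
        _ = h⁻¹ * g⁻¹ * t * x * (t * t) := by group
        _ = (h⁻¹ * g⁻¹ * h) * h⁻¹ * t * x := by rw [htt]; group
    have hgQ : h⁻¹ * g⁻¹ * h ∈ Q := by
      have := hS.conj_mem h⁻¹ ((MulAction.stabilizer G a).inv_mem hh.1) g⁻¹ (Q.inv_mem hg)
      rwa [inv_inv] at this
    obtain ⟨-, e2, e3⟩ := form_unique hS hg₂ hh₂ hf₂ hgQ ((DD G a t).inv_mem hh) hx (he.symm.trans e1)
    exact ⟨e3, e2⟩
  · intro c hc g₃ h₃ f₃ hg₃ hh₃ hf₃ he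
    have hcD := conj_D hS hc
    have e0 : t * (t * c * t) = c * t := by
      calc t * (t * c * t) = (t * t) * c * t := by group
        _ = c * t := by rw [htt, one_mul]
    have e0' : (t * c * t)⁻¹ = t * c⁻¹ * t := by
      calc (t * c * t)⁻¹ = t⁻¹ * c⁻¹ * t⁻¹ := by group
        _ = t * c⁻¹ * t := by rw [hti]
    have e1 : t * (c⁻¹ * x * c) * t = ((t * c * t)⁻¹ * g * (t * c * t)) * ((t * c * t)⁻¹ * h * c) * t * ((t * c * t)⁻¹ * f * (t * c * t)) := by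
      have e4 : t * (c⁻¹ * x * c) * t = (t * c * t)⁻¹ * (t * x * t) * (t * c * t) := by
        rw [e0']
        calc t * (c⁻¹ * x * c) * t = t * c⁻¹ * x * c * t := by group
          _ = t * c⁻¹ * (t * t) * x * (t * t) * c * t := by rw [htt]; group
          _ = t * c⁻¹ * t * (t * x * t) * (t * c * t) := by group
      rw [e4, heq]
      calc (t * c * t)⁻¹ * (g * h * t * f) * (t * c * t)
          = (t * c * t)⁻¹ * g * h * (t * (t * c * t)) * ((t * c * t)⁻¹ * f * (t * c * t)) := by group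
        _ = (t * c * t)⁻¹ * g * h * (c * t) * ((t * c * t)⁻¹ * f * (t * c * t)) := by rw [e0]
        _ = _ := by group
    have q1 : ∀ d ∈ DD G a t, ∀ q ∈ Q, d⁻¹ * q * d ∈ Q := fun d hd q hq => by
      have := hS.conj_mem d⁻¹ ((MulAction.stabilizer G a).inv_mem hd.1) q hq
      rwa [inv_inv] at this
    obtain ⟨-, e2, e3⟩ := form_unique hS hg₃ hh₃ hf₃ (q1 _ hcD g hg)
      ((DD G a t).mul_mem ((DD G a t).mul_mem ((DD G a t).inv_mem hcD) hh) hc) (q1 _ hcD f hf) (he.symm.trans e1)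
    exact ⟨e3, e2⟩

omit [Finite G] in
theorem s1166 {x y gx hx fx gy hy fy : G} (hxQ : x ∈ Q) (hyQ : y ∈ Q) (hxy : x * y ≠ 1)
    (hgx : gx ∈ Q) (hhx : hx ∈ DD G a t) (ex : t * x * t = gx * hx * t * fx)
    (hhy : hy ∈ DD G a t) (hfy : fy ∈ Q) (ey : t * y * t = gy * hy * t * fy) :
    fx * gy ≠ 1 ∧
      ∀ gz hz fz g' h' f' : G, gz ∈ Q → hz ∈ DD G a t → fz ∈ Q → t * (fx * gy) * t = gz * hz * t * fz →
        g' ∈ Q → h' ∈ DD G a t → f' ∈ Q → t * (x * y) * t = g' * h' * t * f' →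
          f' = (t * hy * t)⁻¹ * fz * (t * hy * t) * fy ∧ h' = hx * hz * hy := by
  have htt := hS.mul_self
  have e0 : t * (x * y) * t = gx * hx * t * (fx * gy) * hy * t * fy := by
    calc t * (x * y) * t = t * x * (t * t) * y * t := by rw [htt]; group
      _ = (t * x * t) * (t * y * t) := by group
      _ = gx * hx * t * (fx * gy) * hy * t * fy := by rw [ex, ey]; group
  constructor
  · intro h1
    apply hxy
    refine semireg hS (Q.mul_mem hxQ hyQ) (tne hS) ?_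
    have h2 : (t * (x * y) * t) • a = a := by
      rw [e0, h1]
      have h3 : gx * hx * t * 1 * hy * t * fy = gx * hx * (t * hy * t) * fy := by group
      rw [h3, mul_smul, mul_smul, mul_smul, memQ_fix hS hfy, show (t * hy * t) • a = a from (conj_D hS hhy).1,
        show hx • a = a from hhx.1, memQ_fix hS hgx]
    have h4 : t • ((t * (x * y) * t) • a) = t • a := by rw [h2]
    rw [← mul_smul] at h4
    have h5 : t * (t * (x * y) * t) = (x * y) * t := by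
      calc t * (t * (x * y) * t) = (t * t) * (x * y) * t := by group
        _ = (x * y) * t := by rw [htt, one_mul]
    rw [h5, mul_smul] at h4
    exact h4
  · intro gz hz fz g' h' f' hgz hhz hfz ez hg' hh' hf' e'
    have hD := conj_D hS hhy
    have e1 : t * (x * y) * t = (gx * (hx * gz * hx⁻¹)) * (hx * hz * hy) * t * ((t * hy * t)⁻¹ * fz * (t * hy * t) * fy) := by
      have e2 : t * (t * hy * t) = hy * t := by
        calc t * (t * hy * t) = (t * t) * hy * t := by group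
          _ = hy * t := by rw [htt, one_mul]
      rw [e0]
      calc gx * hx * t * (fx * gy) * hy * t * fy = gx * hx * (t * (fx * gy) * (t * t) * hy * t) * fy := by rw [htt]; group
        _ = gx * hx * (t * (fx * gy) * t) * (t * hy * t) * fy := by group
        _ = gx * hx * (gz * hz * t * fz) * (t * hy * t) * fy := by rw [ez]
        _ = gx * (hx * gz * hx⁻¹) * (hx * hz) * (t * (t * hy * t)) * ((t * hy * t)⁻¹ * fz * (t * hy * t) * fy) := by group
        _ = gx * (hx * gz * hx⁻¹) * (hx * hz) * (hy * t) * ((t * hy * t)⁻¹ * fz * (t * hy * t) * fy) := by rw [e2]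
        _ = _ := by group
    have q1 : (t * hy * t)⁻¹ * fz * (t * hy * t) ∈ Q := by
      have := hS.conj_mem (t * hy * t)⁻¹ ((MulAction.stabilizer G a).inv_mem hD.1) fz hfz
      rwa [inv_inv] at this
    obtain ⟨-, e2, e3⟩ := form_unique hS hg' hh' hf' (Q.mul_mem hgx (hS.conj_mem hx hhx.1 gz hgz))
      ((DD G a t).mul_mem ((DD G a t).mul_mem hhx hhz) hhy) (Q.mul_mem q1 hfy) (e'.symm.trans e1)
    exact ⟨e3, e2⟩

end Setup
end Cfsg.Agent.L0.R1
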