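import Cfsg.Agent.L0.R1.Basic

set_option autoImplicit false
set_option maxHeartbeats 1000000

namespace Cfsg.Agent.L0.R1
open Cfsg

section D
variable {M : Type*} [Group M] [Finite M] {t : M} (htt : t * t = 1) {X : Subgroup M} (hodd : Odd (Nat.card X)) (hn : ∀ x ∈ X, t * x * t ∈ X)
include htt hodd hn

/-- `X = C_X(t) K` -/
theorem VK_exists {x : M} (hx : x ∈ X) : ∃ y ∈ X, t * y = y * t ∧ ∃ z ∈ X, t * z * t = z⁻¹ ∧ x = y * z := by
  have hti : t⁻¹ = t := inv_eq_of_mul_eq_one_left htt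
  set w := t * x⁻¹ * t * x with hw
  have hwX : w ∈ X := X.mul_mem (hn _ (X.inv_mem hx)) hx
  have hwt : t * w * t = w⁻¹ := by
    rw [hw, mul_inv_rev, mul_inv_rev, mul_inv_rev, inv_inv, hti]
    calc t * (t * x⁻¹ * t * x) * t = (t * t) * x⁻¹ * t * x * t := by group
      _ = x⁻¹ * (t * (x * t)) := by rw [htt]; group
  obtain ⟨j, hj⟩ := exists_sqrt hodd hwX
  have hz := conj_pow_inv htt hwt j
  refine ⟨x * (w ^ j)⁻¹, X.mul_mem hx (X.inv_mem (X.pow_mem hwX j)), ?_, w ^ j, X.pow_mem hwX j, hz, by group⟩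
  have h1 : t * w ^ j = (w ^ j)⁻¹ * t := by rw [← hz, mul_assoc, htt, mul_one]
  have h2 : x⁻¹ * t * x = (w ^ j)⁻¹ * t * w ^ j := by
    calc x⁻¹ * t * x = t * w := by rw [hw]; calc x⁻¹ * t * x = (t * t) * x⁻¹ * t * x := by rw [htt, one_mul]
                                    _ = t * (t * x⁻¹ * t * x) := by group
      _ = t * (w ^ j * w ^ j) := by rw [hj]
      _ = (t * w ^ j) * w ^ j := by group
      _ = (w ^ j)⁻¹ * t * w ^ j := by rw [h1]
  calc t * (x * (w ^ j)⁻¹) = x * (x⁻¹ * t * x) * (w ^ j)⁻¹ := by group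
    _ = x * ((w ^ j)⁻¹ * t * w ^ j) * (w ^ j)⁻¹ := by rw [h2]
    _ = x * (w ^ j)⁻¹ * t := by group

theorem VK_unique {y y' z z' : M} (hyt : t * y = y * t) (hyt' : t * y' = y' * t)
    (hz : z ∈ X) (hz' : z' ∈ X) (hzt : t * z * t = z⁻¹) (hzt' : t * z' * t = z'⁻¹) (h : y * z = y' * z') : y = y' ∧ z = z' := by
  have e : ∀ y z : M, t * y = y * t → t * z * t = z⁻¹ → t * ((y * z)⁻¹ * t * (y * z)) = z * z := by
    intro y z h1 h2
    have h3 : y⁻¹ * t * y = t := by rw [mul_assoc, h1, inv_mul_cancel_left]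
    have h4 : t * z⁻¹ * t = z := by
      rw [← h2]
      calc t * (t * z * t) * t = (t * t) * z * (t * t) := by group
        _ = z := by rw [htt]; group
    calc t * ((y * z)⁻¹ * t * (y * z)) = t * z⁻¹ * (y⁻¹ * t * y) * z := by group
      _ = z * z := by rw [h3, h4]
  have h1 := e y z hyt hzt
  have h2 := e y' z' hyt' hzt'
  rw [h, h2] at h1
  have h3 := sq_inj hodd hz' hz h1
  subst h3
  exact ⟨mul_right_cancel h, rfl⟩
end D

section Setup
variable {G Ω : Type*} [Group G] [Finite G] [MulAction G Ω] {a : Ω} {t : G} {Q : Subgroup G}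
variable (hS : Cfsg.IsRankOneSetup G Ω a t Q)
include hS

/-- `C_D(t) ≤ C_D(s₀)` -/
theorem VC_le {s r : G} (hsQ : s ∈ Q) (hs1 : s ≠ 1) (hss : s * s = 1) (hrQ : r ∈ Q) (h : t * s * t = r⁻¹ * t * r) {v : G}
    (hv : v ∈ DD G a t) (hvt : v * t = t * v) : v * s = s * v := by
  have h1 := special_unique hS (s := v * s * v⁻¹) (r := v * r * v⁻¹) (hS.conj_mem v hv.1 s hsQ) (by
    intro h1; apply hs1
    calc s = v⁻¹ * (v * s * v⁻¹) * v := by group
      _ = 1 := by rw [h1]; group) (by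
    calc v * s * v⁻¹ * (v * s * v⁻¹) = v * (s * s) * v⁻¹ := by group
      _ = 1 := by rw [hss]; group) (hS.conj_mem v hv.1 r hrQ) (by
    have hvt' : t * v⁻¹ = v⁻¹ * t := by
      calc t * v⁻¹ = v⁻¹ * (v * t) * v⁻¹ := by group
        _ = v⁻¹ * t := by rw [hvt]; group
    calc t * (v * s * v⁻¹) * t = (t * v) * s * (v⁻¹ * t) := by group
      _ = v * (t * s * t) * v⁻¹ := by rw [← hvt, ← hvt']; group
      _ = (v * r⁻¹) * t * (r * v⁻¹) := by rw [h]; group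
      _ = (v * r⁻¹ * v⁻¹) * (v * t) * (r * v⁻¹) := by group
      _ = (v * r⁻¹ * v⁻¹) * (t * v) * (r * v⁻¹) := by rw [hvt]
      _ = (v * r * v⁻¹)⁻¹ * t * (v * r * v⁻¹) := by group) hsQ hs1 hss hrQ h
  exact mul_inv_eq_iff_eq_mul.mp h1.1

theorem CV_le {s r : G} (hsQ : s ∈ Q) (hs1 : s ≠ 1) (hss : s * s = 1) (hrQ : r ∈ Q) (h : t * s * t = r⁻¹ * t * r) {d : G}
    (hd : d ∈ DD G a t) (hds : d * s = s * d) : d * t = t * d := by
  have htt := hS.mul_self
  obtain ⟨v, hv, hvt, z, hz, hzt, rfl⟩ := VK_exists htt hS.odd_card (fun x hx => conj_D hS hx) hd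
  have hvs := VC_le hS hsQ hs1 hss hrQ h hv hvt.symm
  have hzs : z * s = s * z := by
    have h1 : v * (z * s) = v * (s * z) := by
      calc v * (z * s) = s * (v * z) := by rw [← mul_assoc, hds]
        _ = v * (s * z) := by rw [← mul_assoc, ← hvs, mul_assoc]
    exact mul_left_cancel h1
  have h1 := K_comm hS hzt
  have h2 := K_comm' hS hzt
  -- conj by z
  have e1 : z * (t * s * t) * z⁻¹ = t * s * t := by
    calc z * (t * s * t) * z⁻¹ = (z * t) * s * (t * z⁻¹) := by group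
      _ = (t * z⁻¹) * s * (z * t) := by rw [h2]
      _ = t * (z⁻¹ * s * z) * t := by group
      _ = t * s * t := by
        have : z⁻¹ * s * z = s := by rw [mul_assoc, ← hzs]; group
        rw [this]
  rw [h] at e1
  set p := r * (z * r * z⁻¹)⁻¹ with hp
  have hpQ : p ∈ Q := Q.mul_mem hrQ (Q.inv_mem (hS.conj_mem z hz.1 r hrQ))
  have e2 : p * (z * z * t) * p⁻¹ = t := by
    have e3 : z * t * z⁻¹ = z * z * t := by rw [mul_assoc z t, ← h2]; group
    have e4 : z * (r⁻¹ * t * r) * z⁻¹ = (z * r * z⁻¹)⁻¹ * (z * t * z⁻¹) * (z * r * z⁻¹) := by group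
    rw [e4, e3] at e1
    calc p * (z * z * t) * p⁻¹ = r * ((z * r * z⁻¹)⁻¹ * (z * z * t) * (z * r * z⁻¹)) * r⁻¹ := by rw [hp]; group
      _ = t := by rw [e1]; group
  have e5 : t * p * t = p * (z * z) := by
    calc t * p * t = (p * (z * z * t) * p⁻¹) * p * t := by rw [e2]
      _ = p * (z * z) * (t * t) := by group
      _ = p * (z * z) := by rw [htt, mul_one]
  have hzb : z • (t • a) = t • a := hz.2
  have e6 : p • (t • a) = t • a := by
    have e7 : (t * p * t) • (t • a) = t • a := by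
      rw [mul_smul, mul_smul, ttb hS, memQ_fix hS hpQ]
    rw [e5] at e7
    have e7' : (p * (z * z)) • (t • a) = p • (t • a) := by rw [mul_smul p, mul_smul z, hzb, hzb]
    rwa [e7'] at e7
  have e8 : p = 1 := semireg hS hpQ (tne hS) e6
  rw [e8, mul_one, htt, one_mul] at e5
  have e9 := eq_one_of_sq hS.odd_card hz e5.symm
  rw [e9, mul_one]; exact hvt.symm

/-- the special pair -/
theorem exists_special : ∃ s ∈ Q, s ≠ 1 ∧ s * s = 1 ∧ ∃ r ∈ Q, t * s * t = r⁻¹ * t * r := by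
  obtain ⟨s, hs, hs1, hss⟩ := exists_inv_Q hS
  obtain ⟨m, hm, hmt, r, hr, h⟩ := special_exists hS hs hs1 hss
  refine ⟨m⁻¹ * s * m, ?_, ?_, ?_, r, hr, h⟩
  · have := hS.conj_mem m⁻¹ ((MulAction.stabilizer G a).inv_mem hm.1) s hs
    rwa [inv_inv] at this
  · intro h1; apply hs1
    calc s = m * (m⁻¹ * s * m) * m⁻¹ := by group
      _ = 1 := by rw [h1]; group
  · calc m⁻¹ * s * m * (m⁻¹ * s * m) = m⁻¹ * (s * s) * m := by group
      _ = 1 := by rw [hss]; group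

theorem surj_special {s r : G} (hsQ : s ∈ Q) (hs1 : s ≠ 1) (hss : s * s = 1) (hrQ : r ∈ Q) (h : t * s * t = r⁻¹ * t * r)
    {s' : G} (hs' : s' • a = a) (hs1' : s' ≠ 1) (hss' : s' * s' = 1) :
    ∃ m ∈ DD G a t, t * m * t = m⁻¹ ∧ s' = m * s * m⁻¹ := by
  have hs'Q := inv_mem_Q hS hs' hss'
  obtain ⟨m, hm, hmt, r', hr', h'⟩ := special_exists hS hs'Q hs1' hss'
  have h1 := special_unique hS (s := m⁻¹ * s' * m) (r := r') (by
    have := hS.conj_mem m⁻¹ ((MulAction.stabilizer G a).inv_mem hm.1) s' hs'Q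
    rwa [inv_inv] at this) (by
    intro h1; apply hs1'
    calc s' = m * (m⁻¹ * s' * m) * m⁻¹ := by group
      _ = 1 := by rw [h1]; group) (by
    calc m⁻¹ * s' * m * (m⁻¹ * s' * m) = m⁻¹ * (s' * s') * m := by group
      _ = 1 := by rw [hss']; group) hr' h' hsQ hs1 hss hrQ h
  refine ⟨m, hm, hmt, ?_⟩
  rw [← h1.1]; group

/-- elements of `D` fixing at least three points: `C_Q(X)` is transitive -/
theorem CQ_trans {X : Set G} (hX : X ⊆ (DD G a t : Set G)) {c : Ω} (hc : c ≠ a) (hXc : ∀ x ∈ X, x • c = c) :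
    ∃ q ∈ Q, q • (t • a) = c ∧ ∀ x ∈ X, x * q = q * x := by
  obtain ⟨q, hq, hqc⟩ := Q_trans hS hc
  refine ⟨q, hq, hqc, fun x hx => ?_⟩
  have h1 : x * q * x⁻¹ = q := by
    apply Q_uniq hS (hS.conj_mem x (hX hx).1 q hq) hq (tne hS)
    have h2 : x⁻¹ • (t • a) = t • a := (DD G a t).inv_mem (hX hx) |>.2
    rw [mul_smul, mul_smul, h2, hqc, hXc x hx]
  exact mul_inv_eq_iff_eq_mul.mp h1

/-- same with `a` and `t a` exchanged -/
theorem CQ_trans' {X : Set G} (hX : X ⊆ (DD G a t : Set G)) {c : Ω} (hc : c ≠ t • a) (hXc : ∀ x ∈ X, x • c = c) :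
    ∃ q : G, q • (t • a) = t • a ∧ q • a = c ∧ ∀ x ∈ X, x * q = q * x := by
  have htt := hS.mul_self
  -- use t X t
  have h1 := CQ_trans hS (X := (fun x => t * x * t) '' X) (c := t • c) (by
    rintro _ ⟨x, hx, rfl⟩
    exact conj_D hS (hX hx)) (by
    intro h
    apply hc
    rw [← h, ← mul_smul, htt, one_smul]) (by
    rintro _ ⟨x, hx, rfl⟩
    have : (t * x * t) • (t • c) = t • (x • ((t * t) • c)) := by rw [← mul_smul, ← mul_smul, ← mul_smul]; congr 1; group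
    rw [this, htt, one_smul, hXc x hx])
  obtain ⟨q, hq, hqc, hqX⟩ := h1
  refine ⟨t * q * t, ?_, ?_, fun x hx => ?_⟩
  · rw [mul_smul, mul_smul, ttb hS, memQ_fix hS hq]
  · rw [mul_smul, mul_smul, hqc, ← mul_smul, htt, one_smul]
  · have h2 := hqX (t * x * t) ⟨x, hx, rfl⟩
    calc x * (t * q * t) = (t * t) * x * (t * q * t) := by rw [htt, one_mul]
      _ = t * (t * x * t * q) * t := by group
      _ = t * (q * (t * x * t)) * t := by rw [h2]
      _ = t * q * t * x * (t * t) := by group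
      _ = t * q * t * x := by rw [htt, mul_one]

/-- `C_G(X)` is doubly transitive on the fixed points of `X` -/
theorem C_two {X : Set G} (hX : X ⊆ (DD G a t : Set G))
    (h3 : ∃ b c d : Ω, b ≠ c ∧ b ≠ d ∧ c ≠ d ∧ ∀ x ∈ X, x • b = b ∧ x • c = c ∧ x • d = d) :
    (∀ b₁ b₂ c₁ c₂ : Ω, (∀ x ∈ X, x • b₁ = b₁ ∧ x • b₂ = b₂ ∧ x • c₁ = c₁ ∧ x • c₂ = c₂) →
        b₁ ≠ b₂ → c₁ ≠ c₂ → ∃ g ∈ Subgroup.centralizer X, g • b₁ = c₁ ∧ g • b₂ = c₂) := by
  have hXa : ∀ x ∈ X, x • a = a := fun x hx => (hX hx).1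
  have hXb : ∀ x ∈ X, x • (t • a) = t • a := fun x hx => (hX hx).2
  have mem : ∀ g : G, (∀ x ∈ X, x * g = g * x) → g ∈ Subgroup.centralizer X := fun g hg =>
    Subgroup.mem_centralizer_iff.mpr hg
  have memi : ∀ g ∈ Subgroup.centralizer X, ∀ x ∈ X, x * g = g * x := fun g hg => Subgroup.mem_centralizer_iff.mp hg
  -- third fixed point
  obtain ⟨e, hea, heb, hXe⟩ : ∃ e : Ω, e ≠ a ∧ e ≠ t • a ∧ ∀ x ∈ X, x • e = e := by
    obtain ⟨b, c, d, hbc, hbd, hcd, hf⟩ := h3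
    by_cases hba : b = a
    · by_cases hcb : c = t • a
      · exact ⟨d, fun h => hbd (hba.trans h.symm), fun h => hcd (hcb.trans h.symm), fun x hx => (hf x hx).2.2⟩
      · exact ⟨c, fun h => hbc (hba.trans h.symm), hcb, fun x hx => (hf x hx).2.1⟩
    · by_cases hbb : b = t • a
      · by_cases hca : c = a
        · exact ⟨d, fun h => hcd (hca.trans h.symm), fun h => hbd (hbb.trans h.symm), fun x hx => (hf x hx).2.2⟩
        · exact ⟨c, hca, fun h => hbc (hbb.trans h.symm), fun x hx => (hf x hx).2.1⟩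
      · exact ⟨b, hba, hbb, fun x hx => (hf x hx).1⟩
  -- transitivity: map `a` to any fixed point
  have tr : ∀ c : Ω, (∀ x ∈ X, x • c = c) → ∃ g ∈ Subgroup.centralizer X, g • a = c := by
    intro c hc
    by_cases hcb : c = t • a
    · -- a -> e -> t a
      obtain ⟨q, -, hqa, hqX⟩ := CQ_trans' hS hX heb hXe
      obtain ⟨q', hq', hq'b, hq'X⟩ := CQ_trans hS hX hea hXe
      refine ⟨q'⁻¹ * q, Subgroup.mul_mem _ (Subgroup.inv_mem _ (mem q' hq'X)) (mem q hqX), ?_⟩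
      rw [mul_smul, hqa, hcb, ← hq'b, inv_smul_smul]
    · obtain ⟨q, -, hqa, hqX⟩ := CQ_trans' hS hX hcb hc
      exact ⟨q, mem q hqX, hqa⟩
  have fixC : ∀ g ∈ Subgroup.centralizer X, ∀ c : Ω, (∀ x ∈ X, x • c = c) → ∀ x ∈ X, x • (g • c) = g • c := by
    intro g hg c hc x hx
    rw [← mul_smul, memi g hg x hx, mul_smul, hc x hx]
  -- from (a, b') to (c₁, c₂)
  have key : ∀ c₁ c₂ : Ω, (∀ x ∈ X, x • c₁ = c₁) → (∀ x ∈ X, x • c₂ = c₂) → c₁ ≠ c₂ →
      ∃ g ∈ Subgroup.centralizer X, g • a = c₁ ∧ g • (t • a) = c₂ := by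
    intro c₁ c₂ h1 h2 hne
    obtain ⟨g, hg, hga⟩ := tr c₁ h1
    have h4 := fixC g⁻¹ (Subgroup.inv_mem _ hg) c₂ h2
    obtain ⟨q, hq, hqb, hqX⟩ := CQ_trans hS hX (c := g⁻¹ • c₂) (by
      intro h; apply hne; rw [← hga, ← h, smul_inv_smul]) h4
    refine ⟨g * q, Subgroup.mul_mem _ hg (mem q hqX), ?_, ?_⟩
    · rw [mul_smul, memQ_fix hS hq, hga]
    · rw [mul_smul, hqb, smul_inv_smul]
  intro b₁ b₂ c₁ c₂ hf hb hc
  obtain ⟨g, hg, hg1, hg2⟩ := key b₁ b₂ (fun x hx => (hf x hx).1) (fun x hx => (hf x hx).2.1) hb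
  obtain ⟨g', hg', hg1', hg2'⟩ := key c₁ c₂ (fun x hx => (hf x hx).2.2.1) (fun x hx => (hf x hx).2.2.2) hc
  refine ⟨g' * g⁻¹, Subgroup.mul_mem _ hg' (Subgroup.inv_mem _ hg), ?_, ?_⟩
  · rw [mul_smul, ← hg1, inv_smul_smul, hg1']
  · rw [mul_smul, ← hg2, inv_smul_smul, hg2']

/-- there is an involution commuting with `X` and swapping `a` and `t a` -/
theorem exists_swap {X : Set G} (hX : X ⊆ (DD G a t : Set G))
    (h3 : ∃ b c d : Ω, b ≠ c ∧ b ≠ d ∧ c ≠ d ∧ ∀ x ∈ X, x • b = b ∧ x • c = c ∧ x • d = d) :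
    ∃ u ∈ Subgroup.centralizer X, u ≠ 1 ∧ u * u = 1 ∧ u • a = t • a := by
  obtain ⟨g, hg, hga, hgb⟩ := C_two hS hX h3 a (t • a) (t • a) a (fun x hx => ⟨(hX hx).1, (hX hx).2, (hX hx).2, (hX hx).1⟩)
    (tne hS).symm (tne hS)
  have hggD : g * g ∈ DD G a t := by
    refine Subgroup.mem_inf.mpr ⟨?_, ?_⟩
    · rw [MulAction.mem_stabilizer_iff, mul_smul, hga, hgb]
    · rw [MulAction.mem_stabilizer_iff, mul_smul, hgb, hga]
  -- odd power
  have hodd := hS.odd_card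
  set n := Nat.card ↥(DD G a t) with hn
  obtain ⟨m, hm⟩ : Odd n := hodd
  have h1 : (g * g) ^ n = 1 := by
    have := pow_card_eq_one' (x := (⟨g * g, hggD⟩ : DD G a t))
    exact congrArg Subtype.val this
  have h2 : g ^ n = (g * g) ^ m * g := by
    rw [hm, pow_succ, pow_mul, pow_two]
  have h3' : (g ^ n) • a = t • a := by
    rw [h2, mul_smul, hga]
    exact ((DD G a t).pow_mem hggD m).2
  refine ⟨g ^ n, Subgroup.pow_mem _ hg n, ?_, ?_, h3'⟩
  · intro h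
    rw [h, one_smul] at h3'
    exact tne hS h3'.symm
  · rw [← pow_add, ← two_mul, pow_mul, pow_two, h1]

end Setup

end Cfsg.Agent.L0.R1
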